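import Cfsg.Agent.Lib.Spor.ON.Defs

set_option autoImplicit false
set_option maxRecDepth 100000
set_option Elab.async false
set_option exponentiation.threshold 100000

namespace Cfsg.Agent.Spor.ON
open Cfsg.Agent.PG

theorem yp0_0_16 : chkOn A 17 16 1 (yp0_l) = true := by decide +kernel


end Cfsg.Agent.Spor.ON
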